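import Cfsg.Agent.H0.TC
set_option maxRecDepth 100000
namespace H0.TCM122
open H0
noncomputable def tS : Tr := (.leaf (nat_lit 0xff7a397c5dff5e385b7bff5c377a6fff6d268f4aff4b256e8eff8f246d5cff234f4748ff474e2359ff584d5923ff123c3435ff343b1246ff453a4612ff39113837ff26002524ff31232000ff00123111))
noncomputable def tJ : Tr := (.leaf (nat_lit 0x203932203732204600200902203700200610308021102080000008308021102080000008200600200600001016005000))
noncomputable def tQ : Tr := (.leaf (nat_lit 0x0))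
noncomputable def tR : TC.WTr := (.node (.node (.node (.node (.node (.leaf [0] 0 0 false) (.leaf [1, 0] 4 0 true)) (.leaf [2, 1, 2, 1, 2, 1, 2] 9 0 false)) (.node (.leaf [0] 0 0 false) (.leaf [2] 2 0 false))) (.node (.node (.node (.leaf [2, 0, 2, 3, 2, 3, 2] 12 1 false) (.leaf [2, 1, 2, 3, 2, 1, 2] 11 3 false)) (.leaf [2] 2 0 false)) (.node (.leaf [3, 0] 4 1 false) (.leaf [2] 2 0 false)))) (.node (.node (.node (.node (.leaf [1, 3] 4 0 false) (.leaf [0, 1] 4 2 false)) (.leaf [1] 1 0 false)) (.node (.leaf [1] 1 0 false) (.leaf [2] 2 0 false))) (.node (.node (.node (.leaf [0] 0 0 false) (.leaf [2, 3, 2, 0, 2, 0, 2] 12 5 false)) (.leaf [2] 2 0 false)) (.node (.leaf [0, 3] 4 1 true) (.leaf [3] 3 0 false)))))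
def hl : List ℕ := [3]
def B : List (List ℕ) := [[0, 0], [1, 1], [2, 2], [3, 3], [0, 1, 3], [0, 1, 0, 1], [0, 1, 0, 1], [0, 2, 0, 2, 0, 2, 0, 2, 0, 2, 0, 2, 0, 2, 0, 2], [0, 2, 0, 2, 0, 2, 0, 2, 0, 2, 0, 2, 0, 2, 0, 2], [1, 2, 1, 2, 1, 2, 1, 2], [1, 2, 1, 2, 1, 2, 1, 2], [2, 1, 2, 3, 2, 1, 2, 3], [2, 0, 2, 0, 2, 3, 2, 3]]
def subs : List (List ℕ) := [[3]]
def ex : List (List ℕ) := []
def inv (x : ℕ) : ℕ := [0, 1, 2, 3].getD x 0
noncomputable def rS : ℕ → ℕ := rowOf tS (nat_lit 9) (nat_lit 511) (nat_lit 40) (nat_lit 1099511627775)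
noncomputable def rJ : ℕ → ℕ := rowOf tJ (nat_lit 9) (nat_lit 511) (nat_lit 24) (nat_lit 16777215)
noncomputable def C : TC.Cfg where
  S := look rS (nat_lit 8) (nat_lit 255)
  J := look rJ (nat_lit 4) (nat_lit 15)
  Q := lookQ tQ (nat_lit 9) (nat_lit 1) (nat_lit 1)
  R := tR.get
  hl := fun x => hl.contains x
  n := (nat_lit 16)
  M := (nat_lit 16)
  top := (nat_lit 144)
  nl := (nat_lit 4)
  need := (nat_lit 4)
  nr := (nat_lit 5)
theorem k0 : TC.chkRange C 0 1 = true := by decide +kernel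
theorem rows0 : ∀ c < (0 + 1) * 64, c < C.M → TC.chkRow C c = true :=
  TC.rows_step (TC.rows_zero C) k0
theorem main {G : Type*} [Group G] (g : ℕ → G) (hB : ∀ r ∈ B, ev g r = 1) (H : Subgroup G)
    (hH : ∀ w ∈ subs, ev g w ∈ H) :
    H.relIndex (Subgroup.closure (g '' {x | x < 4})) ≠ 0 ∧
      H.relIndex (Subgroup.closure (g '' {x | x < 4})) ≤ 16 :=
  TC.index_le C B subs ex inv hl tR.hint rfl (by decide +kernel) (by decide +kernel)
    (TC.rows_done rows0 (by decide +kernel)) g hB H hH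
end H0.TCM122
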